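import Cfsg.Agent.H111.RIM.Tools
import Cfsg.Agent.H586.NX.NotNine
import Cfsg.Agent.H586.NX.Fix
import Cfsg.Agent.H610.NX.XCentral
import Cfsg.Agent.H20.NX.Norm
import Cfsg.Agent.H473.NX.Kill

/-!
# S4816, layer (B), `q = p = 3`, `n = 5` (K5, helper111)
-/

set_option autoImplicit false
set_option linter.unusedSectionVars false

open Subgroup

namespace Cfsg.Agent.H111.RIM

open Cfsg.Agent.H586.NX Cfsg.Agent.H20.RIM
open Cfsg.Agent.H610.NX (X_central)
open Cfsg.Agent.H20.NX (normalizer_index_le)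

variable {r : ℕ} {Y U : Type*} [Group Y] [Finite Y] [AddCommGroup U] [Finite U] [DistribMulAction Y U]
  {X : Subgroup Y} {B : U → U → ZMod 2}

theorem P_five : Cfsg.Agent.H37.NW.P 2 5 = 2 ^ 25 * 3 ^ 6 * 5 ^ 2 * 7 * 11 * 17 * 31 := by
  simp [Cfsg.Agent.H37.NW.P, Finset.prod_range_succ]

theorem P_four : Cfsg.Agent.H37.NW.P 2 4 = 2 ^ 16 * (3 * 15 * 63 * 255) := by
  simp [Cfsg.Agent.H37.NW.P, Finset.prod_range_succ]

/-- the number of conjugates of a subgroup of order `3` -/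
theorem five_count (A : AS (U := U) r 5 3 X B) {y : Y} (hy : orderOf y = 3)
    (hfx : ∃ u : U, u ≠ 0 ∧ y • u = u) :
    ∃ j, 2 ≤ j ∧ Nat.card {u : U // y • u = u} = 2 ^ (2 * (5 - j)) ∧
      2690421 ≤ (normalizer ((zpowers y : Subgroup Y) : Set Y)).index := by
  obtain ⟨j, hj1, hj5, hjc, -, -⟩ := exists_fix A.S hy
  obtain ⟨k, hk, hN⟩ := A.cnt y hy j hj5 hjc
  have hj : j ≠ 5 := by
    rintro rfl
    obtain ⟨u, hu0, hu⟩ := hfx
    rw [Nat.sub_self, mul_zero, pow_zero, Nat.card_eq_one_iff_unique] at hjc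
    have := hjc.1
    exact hu0 (congrArg Subtype.val (Subsingleton.elim (⟨u, hu⟩ : {u : U // y • u = u}) ⟨0, smul_zero y⟩))
  have hni := normalizer_index_le A.S hy hj5 hjc
  set N := (normalizer ((zpowers y : Subgroup Y) : Set Y)).index with hNdef
  have hcase : j = 1 ∨ j = 2 ∨ j = 3 ∨ j = 4 := by omega
  rcases hcase with rfl | rfl | rfl | rfl
  · exfalso
    have hk1 : k ≤ 1 := by omega
    have h1 : (3 : ℕ) ^ (2 ^ (5 - 1) * k) ≤ 3 ^ 16 := Nat.pow_le_pow_right (by norm_num) (by omega)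
    have h2 : (3 : ℕ) ^ (2 ^ 5) ≤ 4 ^ 1 * N * 3 ^ 16 := hN.trans (Nat.mul_le_mul_left _ h1)
    rw [show 5 - 1 = 4 by norm_num, P_four, P_five] at hni
    norm_num at h2 hni
    omega
  · refine ⟨2, le_rfl, hjc, ?_⟩
    have hk1 : k ≤ 2 := by omega
    have h1 : (3 : ℕ) ^ (2 ^ (5 - 2) * k) ≤ 3 ^ 16 := Nat.pow_le_pow_right (by norm_num) (by omega)
    have h2 : (3 : ℕ) ^ (2 ^ 5) ≤ 4 ^ 2 * N * 3 ^ 16 := hN.trans (Nat.mul_le_mul_left _ h1)
    norm_num at h2
    omega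
  · refine ⟨3, by norm_num, hjc, ?_⟩
    have hk1 : k ≤ 3 := by omega
    have h1 : (3 : ℕ) ^ (2 ^ (5 - 3) * k) ≤ 3 ^ 12 := Nat.pow_le_pow_right (by norm_num) (by omega)
    have h2 : (3 : ℕ) ^ (2 ^ 5) ≤ 4 ^ 3 * N * 3 ^ 12 := hN.trans (Nat.mul_le_mul_left _ h1)
    norm_num at h2
    omega
  · refine ⟨4, by norm_num, hjc, ?_⟩
    have hk1 : k ≤ 6 := by omega
    have h1 : (3 : ℕ) ^ (2 ^ (5 - 4) * k) ≤ 3 ^ 12 := Nat.pow_le_pow_right (by norm_num) (by omega)
    have h2 : (3 : ℕ) ^ (2 ^ 5) ≤ 4 ^ 4 * N * 3 ^ 12 := hN.trans (Nat.mul_le_mul_left _ h1)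
    norm_num at h2
    omega

/-- **K5** -/
theorem kill5 (A : AS (U := U) r 5 3 X B) : False := by
  have hf3 : Fact (Nat.Prime 3) := ⟨Nat.prime_three⟩
  have hXn := A.nX
  have := A.simp
  have hXc := X_central A.S le_rfl
  obtain ⟨P, T, i, hi, hTc, hiso, hPT⟩ := A.big
  obtain ⟨v, hv0, hv⟩ := A.fixd (Or.inr (by norm_num)) P
  have hcount : ∀ y ∈ P, orderOf y = 3 → ∃ j, 2 ≤ j ∧ Nat.card {u : U // y • u = u} = 2 ^ (2 * (5 - j)) ∧
      2690421 ≤ (normalizer ((zpowers y : Subgroup Y) : Set Y)).index := fun y hy ho =>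
    five_count A ho ⟨v, hv0, hv y hy⟩
  obtain ⟨y, hyP, hy⟩ := Cfsg.Agent.H473.NX.exists_order (P := P) Nat.prime_three A.S.pY
  obtain ⟨-, -, -, hN⟩ := hcount y hyP hy
  -- `P` is faithful on `T`
  have hfaith : ∀ x ∈ (P : Subgroup Y), orderOf x = 3 → ¬ ∀ t ∈ T, x • t = t := by
    intro x hx hxo htriv
    obtain ⟨j, hj2, hjc, -⟩ := hcount x hx hxo
    have h1 := card_sq_le A.S hxo T hiso htriv
    rw [hTc, hjc, ← pow_mul, Nat.pow_le_pow_iff_right (by norm_num)] at h1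
    omega
  have hPd := card_faithful P.2 A.S.exp hPT hTc hfaith
  -- the order of `P`
  have hPc : Nat.card P = 3 ^ (Nat.card Y).factorization 3 := P.card_eq_multiplicity
  have hY0 : Nat.card Y ≠ 0 := Nat.card_pos.ne'
  have hPd' : Nat.card P ∣ 3 ^ 2 := by
    have h1 : Nat.card P ∣ 9999360 ∨ Nat.card P ∣ 20160 := by
      rcases hi with rfl | hi
      · left
        refine hPd.trans (dvd_of_eq ?_)
        decide
      · right
        have : i = 4 := by omega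
        subst this
        refine hPd.trans (dvd_of_eq ?_)
        decide
    rw [hPc] at h1 ⊢
    apply pow_dvd_pow
    by_contra hcon
    have h2 : 27 ∣ 3 ^ (Nat.card Y).factorization 3 := by
      have : (3 : ℕ) ^ 3 ∣ 3 ^ (Nat.card Y).factorization 3 := pow_dvd_pow 3 (by omega)
      exact this
    rcases h1 with h1 | h1 <;> have h3 := h2.trans h1 <;> norm_num at h3
  have hSY : Nat.card (Y ⧸ X) ∣ Nat.card Y := Subgroup.card_quotient_dvd_card X
  have hSd : Nat.card (Y ⧸ X) ∣ 2 ^ 25 * 3 ^ 6 * 5 ^ 2 * 7 * 11 * 17 * 31 := by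
    rw [← P_five]
    exact hSY.trans (card_dvd A.S)
  have hfac : ∀ e, 3 ^ e ∣ Nat.card Y → 3 ^ e ∣ Nat.card P := by
    intro e he
    rw [hPc]
    exact pow_dvd_pow 3 ((Nat.prime_three.pow_dvd_iff_le_factorization hY0).1 he)
  rcases (Nat.dvd_prime_pow Nat.prime_three).1 hPd' with ⟨e, he2, he⟩
  have he1 : 1 ≤ e := by
    by_contra hcon
    have h0 : e = 0 := by omega
    have h1 := hfac 1 (by rw [pow_one]; exact A.S.pY)
    rw [he, h0] at h1
    norm_num at h1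
  have hcase : e = 1 ∨ e = 2 := by omega
  rcases hcase with rfl | rfl
  · -- `|P| = 3`
    have h9 : ¬ 9 ∣ Nat.card (Y ⧸ X) := by
      intro h
      have h1 := hfac 2 (h.trans hSY)
      rw [he] at h1
      norm_num at h1
    have h1 := card_of_not_nine A.na A.pS h9 hSd
    have h2 := index_three hXc hy A.S.pX
    omega
  · -- `|P| = 9`
    have h27 : ¬ 27 ∣ Nat.card (Y ⧸ X) := by
      intro h
      have h1 := hfac 3 (h.trans hSY)
      rw [he] at h1
      norm_num at h1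
    have h1 := card_le_of_not_27 A.na A.pS h27 hSd
    have h2 := index_nine hXc A.S.pX (P := (P : Subgroup Y)) (by rw [he]; norm_num) hyP
    omega

end Cfsg.Agent.H111.RIM
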