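import Cfsg.Agent.H111.RIM.Kill5
import Cfsg.Agent.H994.NX.Wie

/-!
# S4816, layer (B), `q = p = 3`, `Q ≥ 9` (K9, helper111)
-/

set_option autoImplicit false
set_option linter.unusedSectionVars false

open Subgroup

namespace Cfsg.Agent.H111.RIM

open Cfsg.Agent.H586.NX Cfsg.Agent.H20.RIM
open Cfsg.Agent.H610.NX (X_central)
open Cfsg.Agent.H20.NX (normalizer_index_le)

variable {r n Q : ℕ} {Y U : Type*} [Group Y] [Finite Y] [AddCommGroup U] [Finite U] [DistribMulAction Y U]
  {X : Subgroup Y} {B : U → U → ZMod 2}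

theorem P_three : Cfsg.Agent.H37.NW.P 2 3 = 1451520 := by
  simp [Cfsg.Agent.H37.NW.P, Finset.prod_range_succ]

theorem P_two : Cfsg.Agent.H37.NW.P 2 2 = 720 := by
  simp [Cfsg.Agent.H37.NW.P, Finset.prod_range_succ]

theorem P_one : Cfsg.Agent.H37.NW.P 2 1 = 6 := by
  simp [Cfsg.Agent.H37.NW.P]

theorem P_six : Cfsg.Agent.H37.NW.P 2 6 = 2 ^ 36 * (3 * 15 * 63 * 255 * 1023 * 4095) := by
  simp [Cfsg.Agent.H37.NW.P, Finset.prod_range_succ]

/-- every element of order `3` lies in a Sylow subgroup -/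
theorem exists_sylow_mem {y : Y} (hy : orderOf y = 3) : ∃ P : Sylow 3 Y, y ∈ P := by
  have hf3 : Fact (Nat.Prime 3) := ⟨Nat.prime_three⟩
  have h1 : IsPGroup 3 (zpowers y) := IsPGroup.of_card (n := 1) (by rw [Nat.card_zpowers, hy, pow_one])
  obtain ⟨P, hP⟩ := h1.exists_le_sylow
  exact ⟨P, hP (mem_zpowers y)⟩

/-- the counting inequality for `Q ≥ 9` -/
theorem cnt_nine (A : AS (U := U) r n Q X B) (hQ : 9 ≤ Q) {y : Y} (hy : orderOf y = 3) :
    ∃ j, 1 ≤ j ∧ j < n ∧ Nat.card {u : U // y • u = u} = 2 ^ (2 * (n - j)) ∧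
      9 ^ (2 ^ n - 2 ^ (n - j) * ((2 ^ j + 2) / 3)) ≤
        4 ^ j * (normalizer ((zpowers y : Subgroup Y) : Set Y)).index ∧
      (normalizer ((zpowers y : Subgroup Y) : Set Y)).index * (2 * 3 ^ j * Cfsg.Agent.H37.NW.P 2 (n - j)) ≤
        Cfsg.Agent.H37.NW.P 2 n := by
  obtain ⟨j, hj1, hjn, hjc, -, -⟩ := exists_fix A.S hy
  obtain ⟨P, hP⟩ := exists_sylow_mem hy
  obtain ⟨u, hu0, hu⟩ := A.fixd (Or.inl hQ) P
  have hj : j ≠ n := by
    rintro rfl
    rw [Nat.sub_self, mul_zero, pow_zero, Nat.card_eq_one_iff_unique] at hjc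
    have := hjc.1
    exact hu0 (congrArg Subtype.val (Subsingleton.elim (⟨u, hu y hP⟩ : {u : U // y • u = u}) ⟨0, smul_zero y⟩))
  obtain ⟨k, hk, hN⟩ := A.cnt y hy j hjn hjc
  refine ⟨j, hj1, lt_of_le_of_ne hjn hj, hjc, ?_, normalizer_index_le A.S hy hjn hjc⟩
  set N := (normalizer ((zpowers y : Subgroup Y) : Set Y)).index with hNdef
  set m := (2 ^ j + 2) / 3 with hm
  have hkm : k ≤ m := by omega
  have h1 : Q ^ (2 ^ (n - j) * k) ≤ Q ^ (2 ^ (n - j) * m) :=
    Nat.pow_le_pow_right (by omega) (Nat.mul_le_mul_left _ hkm)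
  have h2 : Q ^ (2 ^ n) ≤ 4 ^ j * N * Q ^ (2 ^ (n - j) * m) := hN.trans (Nat.mul_le_mul_left _ h1)
  have h3 : 2 ^ (n - j) * m ≤ 2 ^ n := by
    have h4 : m ≤ 2 ^ j := by
      have : 2 ≤ 2 ^ j := by
        calc 2 = 2 ^ 1 := rfl
          _ ≤ 2 ^ j := Nat.pow_le_pow_right (by norm_num) hj1
      omega
    calc 2 ^ (n - j) * m ≤ 2 ^ (n - j) * 2 ^ j := Nat.mul_le_mul_left _ h4
      _ = 2 ^ n := by rw [← pow_add, Nat.sub_add_cancel hjn]
  have h4 : Q ^ (2 ^ n) = Q ^ (2 ^ n - 2 ^ (n - j) * m) * Q ^ (2 ^ (n - j) * m) := by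
    rw [← pow_add, Nat.sub_add_cancel h3]
  rw [h4] at h2
  have h5 := Nat.le_of_mul_le_mul_right h2 (Nat.pow_pos (by omega))
  exact (Nat.pow_le_pow_left hQ _).trans h5

/-- **K9** -/
theorem kill9 (A : AS (U := U) r n Q X B) (hQ : 9 ≤ Q) : False := by
  have hf3 : Fact (Nat.Prime 3) := ⟨Nat.prime_three⟩
  have hXn := A.nX
  have := A.simp
  obtain ⟨P, T, i, hi, hTc, hiso, hPT⟩ := A.big
  obtain ⟨y, hyP, hy⟩ := Cfsg.Agent.H473.NX.exists_order (P := P) Nat.prime_three A.S.pY
  have hSY : Nat.card (Y ⧸ X) ∣ Nat.card Y := Subgroup.card_quotient_dvd_card X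
  have hYP := card_dvd A.S
  have hY0 : Nat.card Y ≠ 0 := Nat.card_pos.ne'
  have hPc : Nat.card P = 3 ^ (Nat.card Y).factorization 3 := P.card_eq_multiplicity
  have hfac : ∀ e, 3 ^ e ∣ Nat.card Y → 3 ^ e ∣ Nat.card P := by
    intro e he
    rw [hPc]
    exact pow_dvd_pow 3 ((Nat.prime_three.pow_dvd_iff_le_factorization hY0).1 he)
  have hn2 := A.n2
  have hn6 := A.n6
  have hcn := fun (x : Y) (hx : orderOf x = 3) => cnt_nine A hQ hx
  have hcase : n = 2 ∨ n = 3 ∨ n = 4 ∨ n = 5 ∨ n = 6 := by omega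
  rcases hcase with rfl | rfl | rfl | rfl | rfl
  · -- `n = 2`
    obtain ⟨j, hj1, hjn, -, h1, h2⟩ := hcn y hy
    have : j = 1 := by omega
    subst this
    rw [show 2 - 1 = 1 by norm_num, P_one, P_two] at h2
    norm_num at h1 h2
    omega
  · -- `n = 3`
    have hXc := X_central A.S (by norm_num)
    have h411 : ∀ x : Y, orderOf x = 3 → Nat.card {u : U // x • u = u} = 4 ∧
        411 ≤ (normalizer ((zpowers x : Subgroup Y) : Set Y)).index := by
      intro x hx
      obtain ⟨j, hj1, hjn, hjc, h1, h2⟩ := hcn x hx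
      have hj : j = 1 ∨ j = 2 := by omega
      rcases hj with rfl | rfl
      · exfalso
        rw [show 3 - 1 = 2 by norm_num, P_two, P_three] at h2
        norm_num at h1 h2
        omega
      · refine ⟨by rw [hjc]; norm_num, ?_⟩
        norm_num at h1
        omega
    have h9 := Cfsg.Agent.H994.NX.not_nine A.S (Or.inr (Or.inl rfl)) (fun x hx => (h411 x hx).1)
    have hSd : Nat.card (Y ⧸ X) ∣ 1451520 := by rw [← P_three]; exact hSY.trans hYP
    have h1 := card_of_not_nine A.na A.pS (fun h => h9 (h.trans hSY)) (hSd.trans (by norm_num))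
    have h2 := index_three hXc hy A.S.pX
    have h3 := (h411 y hy).2
    rcases h1 with h1 | h1 | h1 | h1 | h1 | h1
    · omega
    · omega
    all_goals
      rw [h1] at hSd
      norm_num at hSd
  · -- `n = 4`
    have hXc := X_central A.S (by norm_num)
    have hj4 : ∀ x : Y, orderOf x = 3 → ∃ j, 2 ≤ j ∧ Nat.card {u : U // x • u = u} = 2 ^ (2 * (4 - j)) ∧
        2690421 ≤ (normalizer ((zpowers x : Subgroup Y) : Set Y)).index := by
      intro x hx
      obtain ⟨j, hj1, hjn, hjc, h1, h2⟩ := hcn x hx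
      have hj : j = 1 ∨ j = 2 ∨ j = 3 := by omega
      rcases hj with rfl | rfl | rfl
      · exfalso
        rw [show 4 - 1 = 3 by norm_num, P_three, P_four] at h2
        norm_num at h1 h2
        omega
      · refine ⟨2, le_rfl, hjc, ?_⟩
        norm_num at h1
        omega
      · refine ⟨3, by norm_num, hjc, ?_⟩
        norm_num at h1
        omega
    have hfaith : ∀ x ∈ (P : Subgroup Y), orderOf x = 3 → ¬ ∀ t ∈ T, x • t = t := by
      intro x hx hxo htriv
      obtain ⟨j, hj2, hjc, -⟩ := hj4 x hxo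
      have h1 := card_sq_le A.S hxo T hiso htriv
      rw [hTc, hjc, ← pow_mul, Nat.pow_le_pow_iff_right (by norm_num)] at h1
      omega
    have hPd := card_faithful P.2 A.S.exp hPT hTc hfaith
    have hPd' : Nat.card P ∣ 3 ^ 2 := by
      have h1 : Nat.card P ∣ 20160 ∨ Nat.card P ∣ 168 := by
        rcases hi with rfl | hi
        · left
          refine hPd.trans (dvd_of_eq ?_)
          decide
        · right
          have : i = 3 := by omega
          subst this
          refine hPd.trans (dvd_of_eq ?_)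
          decide
      rw [hPc] at h1 ⊢
      apply pow_dvd_pow
      by_contra hcon
      have h2 : 27 ∣ 3 ^ (Nat.card Y).factorization 3 := by
        have : (3 : ℕ) ^ 3 ∣ 3 ^ (Nat.card Y).factorization 3 := pow_dvd_pow 3 (by omega)
        exact this
      rcases h1 with h1 | h1 <;> have h3 := h2.trans h1 <;> norm_num at h3
    have hSd : Nat.card (Y ⧸ X) ∣ 2 ^ 25 * 3 ^ 6 * 5 ^ 2 * 7 * 11 * 17 * 31 := by
      refine (hSY.trans hYP).trans ?_
      rw [P_four]
      norm_num
    obtain ⟨-, -, -, hN⟩ := hj4 y hy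
    rcases (Nat.dvd_prime_pow Nat.prime_three).1 hPd' with ⟨e, he2, he⟩
    have he1 : 1 ≤ e := by
      by_contra hcon
      have h0 : e = 0 := by omega
      have h1 := hfac 1 (by rw [pow_one]; exact A.S.pY)
      rw [he, h0] at h1
      norm_num at h1
    have hcase : e = 1 ∨ e = 2 := by omega
    rcases hcase with rfl | rfl
    · have h9 : ¬ 9 ∣ Nat.card (Y ⧸ X) := by
        intro h
        have h1 := hfac 2 (h.trans hSY)
        rw [he] at h1
        norm_num at h1
      have h1 := card_of_not_nine A.na A.pS h9 hSd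
      have h2 := index_three hXc hy A.S.pX
      omega
    · have h27 : ¬ 27 ∣ Nat.card (Y ⧸ X) := by
        intro h
        have h1 := hfac 3 (h.trans hSY)
        rw [he] at h1
        norm_num at h1
      have h1 := card_le_of_not_27 A.na A.pS h27 hSd
      have h2 := index_nine hXc A.S.pX (P := (P : Subgroup Y)) (by rw [he]; norm_num) hyP
      omega
  · -- `n = 5`
    obtain ⟨j, hj1, hjn, -, h1, h2⟩ := hcn y hy
    have hj : j = 1 ∨ j = 2 ∨ j = 3 ∨ j = 4 := by omega
    rcases hj with rfl | rfl | rfl | rfl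
    · rw [show 5 - 1 = 4 by norm_num, P_four, P_five] at h2
      norm_num at h1 h2
      omega
    · rw [show 5 - 2 = 3 by norm_num, P_three, P_five] at h2
      norm_num at h1 h2
      omega
    · rw [show 5 - 3 = 2 by norm_num, P_two, P_five] at h2
      norm_num at h1 h2
      omega
    · rw [show 5 - 4 = 1 by norm_num, P_one, P_five] at h2
      norm_num at h1 h2
      omega
  · -- `n = 6`
    obtain ⟨j, hj1, hjn, -, h1, h2⟩ := hcn y hy
    have hj : j = 1 ∨ j = 2 ∨ j = 3 ∨ j = 4 ∨ j = 5 := by omega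
    rcases hj with rfl | rfl | rfl | rfl | rfl
    · rw [show 6 - 1 = 5 by norm_num, P_five, P_six] at h2
      norm_num at h1 h2
      omega
    · rw [show 6 - 2 = 4 by norm_num, P_four, P_six] at h2
      norm_num at h1 h2
      omega
    · rw [show 6 - 3 = 3 by norm_num, P_three, P_six] at h2
      norm_num at h1 h2
      omega
    · rw [show 6 - 4 = 2 by norm_num, P_two, P_six] at h2
      norm_num at h1 h2
      omega
    · rw [show 6 - 5 = 1 by norm_num, P_one, P_six] at h2
      norm_num at h1 h2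
      omega

end Cfsg.Agent.H111.RIM
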